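import Cfsg.Prelude.Def_Solvable
import Cfsg.Prelude.Def_CaseTheorems
import Cfsg.Prelude.Def_Local
import Cfsg.Prelude.Def_IsolatedElements
import Cfsg.Agent.Lib.Cores
import Cfsg.Agent.Lib.MinNormal
import Cfsg.Agent.Lib.GenFitting
import Cfsg.Agent.Lib.SylowNormalInf
import Cfsg.Agent.Lib.CoprimeStab
import Cfsg.Agent.S0071

/-!
# Isolated elements of order `p` in groups of `p`-rank at most two (S3049)
-/

set_option autoImplicit false
set_option linter.unusedSectionVars false
set_option linter.style.haveILetI false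

open Subgroup
open scoped commutatorElement

namespace Cfsg.Agent.H273.IsoRank

open Cfsg.Agent.SignalizersComponents.Components

variable {G : Type*} [Group G] [Finite G] {p : ℕ} [hpf : Fact p.Prime]

/-- The closure of a set of pairwise commuting elements of exponent `p` is elementary abelian. -/
theorem closure_elemAb {H : Type*} [Group H] {s : Set H} {n : ℕ} (hc : ∀ a ∈ s, ∀ b ∈ s, a * b = b * a)
    (hp : ∀ a ∈ s, a ^ n = 1) :
    (∀ a ∈ closure s, ∀ b ∈ closure s, a * b = b * a) ∧ ∀ a ∈ closure s, a ^ n = 1 := by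
  have h1 : ∀ a ∈ closure s, ∀ b ∈ s, a * b = b * a := by
    intro a ha b hb
    have : closure s ≤ centralizer ({b} : Set H) := by
      rw [closure_le]
      intro c hcs
      exact mem_centralizer_singleton_iff.2 (hc c hcs b hb)
    exact mem_centralizer_singleton_iff.1 (this ha)
  have h2 : ∀ a ∈ closure s, ∀ b ∈ closure s, a * b = b * a := by
    intro a ha b hb
    have : closure s ≤ centralizer ({a} : Set H) := by
      rw [closure_le]
      intro c hcs
      exact mem_centralizer_singleton_iff.2 (h1 a ha c hcs).symm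
    exact (mem_centralizer_singleton_iff.1 (this hb)).symm
  refine ⟨h2, fun a ha => ?_⟩
  induction ha using closure_induction with
  | mem x hx => exact hp x hx
  | one => exact one_pow _
  | mul x y hx hy h3 h4 => rw [(show Commute x y from h2 x hx y hy).mul_pow, h3, h4, one_mul]
  | inv x hx h3 => rw [inv_pow, h3, inv_one]

/-- An isolated element of a `p`-subgroup is central in it. -/
theorem isolated_central {x : G} (hiso : Cfsg.IsIsolated x) {T : Subgroup G} (hT : IsPGroup p T) (hx : x ∈ T) :
    ∀ t ∈ T, t * x = x * t := by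
  set x' : T := ⟨x, hx⟩ with hx'
  have h1 : centralizer ({x'} : Set T) = ⊤ := by
    by_contra h
    have hnc : NormalizerCondition T := by
      haveI := hT.isNilpotent
      exact Group.normalizerCondition_of_isNilpotent
    have hlt := hnc (centralizer ({x'} : Set T)) (lt_top_iff_ne_top.2 h)
    obtain ⟨t, htn, htc⟩ := SetLike.exists_of_lt hlt
    apply htc
    have h2 : x' ∈ centralizer ({x'} : Set T) := mem_centralizer_singleton_iff.2 rfl
    have h3 := (mem_normalizer_iff.1 htn x').1 h2
    rw [mem_centralizer_singleton_iff] at h3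
    have h4 : Commute x ((t : G) * x * (t : G)⁻¹) := by
      have := congrArg Subtype.val h3
      exact this.symm
    have h5 := hiso t h4
    rw [mem_centralizer_singleton_iff]
    apply Subtype.ext
    show (t : G) * x = x * t
    rwa [mul_inv_eq_iff_eq_mul] at h5
  intro t ht
  have : (⟨t, ht⟩ : T) ∈ centralizer ({x'} : Set T) := h1 ▸ mem_top _
  exact congrArg Subtype.val (mem_centralizer_singleton_iff.1 this)

theorem isolated_eq {x : G} (hiso : Cfsg.IsIsolated x) {T : Subgroup G} (hT : IsPGroup p T) (hx : x ∈ T)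
    {g : G} (hg : g * x * g⁻¹ ∈ T) : g * x * g⁻¹ = x :=
  hiso g (isolated_central hiso hT hx _ hg).symm

/-- Powers of an isolated element are isolated with respect to a `p`-subgroup. -/
theorem isolated_pow_eq {x : G} (hx : orderOf x = p) (hiso : Cfsg.IsIsolated x) {T : Subgroup G} (hT : IsPGroup p T)
    (hxT : x ∈ T) (i : ℤ) {g : G} (hg : g * x ^ i * g⁻¹ ∈ T) : g * x ^ i * g⁻¹ = x ^ i := by
  have hp : p.Prime := hpf.out
  by_cases hi : (p : ℤ) ∣ i
  · have : x ^ i = 1 := by rw [← orderOf_dvd_iff_zpow_eq_one, hx]; exact hi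
    rw [this]; group
  · -- `x` is a power of `x ^ i`
    have hc : IsCoprime i (p : ℤ) := by
      rw [isCoprime_comm]
      exact (Nat.prime_iff_prime_int.1 hp).coprime_iff_not_dvd.2 hi
    obtain ⟨a, b, hab⟩ := hc
    have h1 : (x ^ i) ^ a = x := by
      rw [← zpow_mul]
      have h2 : i * a = 1 - b * p := by linarith
      rw [h2, sub_eq_add_neg, zpow_add, zpow_one, zpow_neg, mul_comm b, zpow_mul]
      have : x ^ (p : ℤ) = 1 := by rw [zpow_natCast, ← hx, pow_orderOf_eq_one]
      rw [this]; simp
    have h2 : g * x * g⁻¹ ∈ T := by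
      have h3 : (g * x ^ i * g⁻¹) ^ a = g * x * g⁻¹ := by
        rw [conj_zpow, h1]
      rw [← h3]
      exact T.zpow_mem hg a
    have h3 := isolated_eq hiso hT hxT h2
    calc g * x ^ i * g⁻¹ = (g * x * g⁻¹) ^ i := by rw [conj_zpow]
      _ = x ^ i := by rw [h3]

/-- `F*(G)` normalises each component. -/
theorem genFitting_le_normalizer {K : Subgroup G} (hK : Cfsg.IsComponent K) :
    Cfsg.generalizedFittingSubgroup G ≤ normalizer (K : Set G) := by
  rw [Lib.GenFitting.genFitting_def]
  refine sup_le (layer_le_normalizer_component hK) ?_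
  have h1 : K ≤ centralizer (Cfsg.fittingSubgroup G : Set G) :=
    (component_le_layer hK).trans layer_le_centralizer_fitting
  have h2 : Cfsg.fittingSubgroup G ≤ centralizer (K : Set G) := by
    rwa [le_centralizer_iff]
  refine h2.trans ?_
  intro g hg
  rw [mem_normalizer_iff]
  intro y
  have hg' := mem_centralizer_iff.1 hg
  constructor
  · intro hy
    have : g * y * g⁻¹ = y := by rw [← hg' y hy]; group
    rwa [this]
  · intro hy
    have h3 := hg' _ hy
    have : y = g * y * g⁻¹ := by
      have h4 : g * y * g⁻¹ * g = g * (g * y * g⁻¹) := h3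
      have h5 : g * y = g * (g * y * g⁻¹) := by rw [← h4]; group
      exact mul_left_cancel h5
    rw [this]; exact hy

/-- A nontrivial subgroup `X` normal in `F*(G)` contains an element of order `p` of the Sylow subgroup `P`
when `O_{p'}(G) = 1`; and `P ∩ X` has index prime to `p` in `X`. -/
theorem exists_order_p (hcore : Cfsg.pPrimeCore p G = ⊥) (P : Sylow p G) {X : Subgroup G}
    (hXF : X ≤ Cfsg.generalizedFittingSubgroup G)
    (hFX : Cfsg.generalizedFittingSubgroup G ≤ normalizer (X : Set G)) (hX : X ≠ ⊥) :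
    ¬ p ∣ (P : Subgroup G).relIndex X ∧ ∃ z ∈ X, z ∈ (P : Subgroup G) ∧ orderOf z = p := by
  set F := Cfsg.generalizedFittingSubgroup G with hF
  haveI hFn : F.Normal := Lib.GenFitting.genFitting_normal
  haveI hXn : (X.subgroupOf F).Normal := by
    rw [normal_subgroupOf_iff_le_normalizer hXF]; exact hFX
  have h1 : ¬ p ∣ (P : Subgroup G).relIndex X := by
    have h2 := Lib.SylowNormalInf.not_dvd_relIndex
      ((Lib.SylowNormalInf.isPGroup_subgroupOf P F).toSylow (Lib.SylowNormalInf.not_dvd_relIndex P F))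
      (X.subgroupOf F)
    have h3 : (((Lib.SylowNormalInf.isPGroup_subgroupOf P F).toSylow
      (Lib.SylowNormalInf.not_dvd_relIndex P F) : Sylow p F) : Subgroup F) = (P : Subgroup G).subgroupOf F := rfl
    rw [h3, relIndex_subgroupOf hXF] at h2
    exact h2
  refine ⟨h1, ?_⟩
  have h4 : p ∣ Nat.card X := by
    by_contra h
    apply hX
    have h5 : X.subgroupOf F ≤ Cfsg.pPrimeCore p F := by
      refine Lib.Cores.le_pPrimeCore hXn ?_
      have : Nat.card (X.subgroupOf F) = Nat.card X := Nat.card_congr (subgroupOfEquivOfLe hXF).toEquiv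
      rw [this]
      exact ((Nat.Prime.coprime_iff_not_dvd hpf.out).2 h).symm
    have h6 := Lib.Cores.map_subtype_pPrimeCore p hFn
    rw [hcore, inf_bot_eq] at h6
    have h7 : (X.subgroupOf F).map F.subtype = X := by
      rw [subgroupOf_map_subtype, inf_eq_left.2 hXF]
    rw [← h7, eq_bot_iff, ← h6]
    exact map_mono h5
  have h8 : p ∣ Nat.card ((P : Subgroup G) ⊓ X : Subgroup G) := by
    rw [← Lib.SylowNormalInf.card_inf_mul_relIndex (P : Subgroup G) X] at h4
    exact (hpf.out.dvd_mul.1 h4).resolve_right h1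
  obtain ⟨z, hz⟩ := exists_prime_orderOf_dvd_card' p h8
  refine ⟨z, (mem_inf.1 z.2).2, (mem_inf.1 z.2).1, ?_⟩
  exact (orderOf_coe z).trans hz

/-- A finite group `K` (`p` odd) in which the elements of order dividing `p` of a Sylow `p`-subgroup `R` are only
fused to themselves in `R` has a normal `p`-complement. -/
theorem complement_of_isolated {K : Type*} [Group K] [Finite K] (hp2 : p ≠ 2) (R : Sylow p K)
    (h : ∀ y ∈ (R : Subgroup K), y ^ p = 1 → ∀ g : K, g * y * g⁻¹ ∈ (R : Subgroup K) → g * y * g⁻¹ = y) :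
    ∃ N : Subgroup K, N.Normal ∧ N.IsComplement' (R : Subgroup K) := by
  rw [S0071.result R]
  intro Q hQ g hg hcop
  have h1 : zpowers g ≤ centralizer (Q : Set K) := by
    refine Lib.CoprimeStab.le_centralizer_of_omega p hp2 (zpowers g) ?_ Q (R.isPGroup'.to_le hQ) ?_ ?_
    · rw [Nat.card_zpowers]; exact hcop
    · rwa [zpowers_le]
    · intro x hx hxp a ha
      have h2 : Commute x g := by
        have h3 := h x (hQ hx) hxp g (hQ ((mem_normalizer_iff.1 hg x).1 hx))
        have h4 : g * x = x * g := by rwa [mul_inv_eq_iff_eq_mul] at h3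
        exact h4.symm
      obtain ⟨i, rfl⟩ := mem_zpowers_iff.1 ha
      exact h2.zpow_right i
  exact h1 (mem_zpowers g)

/-- A quasisimple group of order divisible by `p` has no normal `p`-complement. -/
theorem no_complement {K : Type*} [Group K] [Finite K] (hK : Cfsg.IsQuasisimple K) (R : Sylow p K)
    (hR : (R : Subgroup K) ≠ ⊥) : ¬ ∃ N : Subgroup K, N.Normal ∧ N.IsComplement' (R : Subgroup K) := by
  rintro ⟨N, hN, hc⟩
  haveI := hN
  haveI : Group.IsPerfect K := hK.1
  have hcard : Nat.card (K ⧸ N) = Nat.card (R : Subgroup K) := by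
    have h1 := hc.card_mul_card
    have h2 := Subgroup.card_eq_card_quotient_mul_card_subgroup N
    rw [h2, mul_comm] at h1
    exact (Nat.eq_of_mul_eq_mul_right Nat.card_pos h1).symm
  have hpg : IsPGroup p (K ⧸ N) := by
    obtain ⟨n, hn⟩ := IsPGroup.iff_card.1 R.isPGroup'
    exact IsPGroup.of_card (hcard.trans hn)
  haveI := hpg.isNilpotent
  have hnt : ¬ Nontrivial (K ⧸ N) := fun h => Group.IsPerfect.not_isNilpotent (G := K ⧸ N) inferInstance
  rw [not_nontrivial_iff_subsingleton] at hnt
  apply hR
  rw [← Subgroup.card_eq_one, ← hcard]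
  exact Nat.card_of_subsingleton 1

/-- **The key step**: if `C_{F*(G)}(K) ≠ 1` then `x` centralises the component `K`. -/
theorem key (hp2 : p ≠ 2) (hcore : Cfsg.pPrimeCore p G = ⊥)
    (hrank : Cfsg.PRankLE p 2 G) {x : G} (hx : orderOf x = p) (hiso : Cfsg.IsIsolated x)
    {K : Subgroup G} (hK : Cfsg.IsComponent K)
    (hC : Cfsg.generalizedFittingSubgroup G ⊓ centralizer (K : Set G) ≠ ⊥) : ∀ k ∈ K, x * k = k * x := by
  have hp : p.Prime := hpf.out
  set F := Cfsg.generalizedFittingSubgroup G with hF
  have hxpg : IsPGroup p (zpowers x) := IsPGroup.of_card (n := 1) (by rw [Nat.card_zpowers, hx, pow_one])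
  obtain ⟨P, hxP'⟩ := hxpg.exists_le_sylow
  have hxP : x ∈ (P : Subgroup G) := hxP' (mem_zpowers x)
  have hFK : F ≤ normalizer (K : Set G) := genFitting_le_normalizer hK
  have hFC : F ≤ normalizer ((F ⊓ centralizer (K : Set G) : Subgroup G) : Set G) := by
    refine Lib.MinNormal.le_normalizer_inf le_normalizer ?_
    refine hFK.trans ?_
    intro g hg
    rw [mem_normalizer_iff]
    have key : ∀ g ∈ normalizer (K : Set G), ∀ y ∈ centralizer (K : Set G), g * y * g⁻¹ ∈ centralizer (K : Set G) := by
      intro g hg y hy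
      rw [mem_centralizer_iff] at hy ⊢
      intro k hk
      have h1 : g⁻¹ * k * g ∈ K := by
        have := (mem_normalizer_iff.1 (inv_mem hg) k).1 hk
        simpa using this
      have h2 := hy _ h1
      calc k * (g * y * g⁻¹) = g * ((g⁻¹ * k * g) * y) * g⁻¹ := by group
        _ = g * (y * (g⁻¹ * k * g)) * g⁻¹ := by rw [h2]
        _ = g * y * g⁻¹ * k := by group
    intro y
    refine ⟨key g hg y, fun h => ?_⟩
    have := key g⁻¹ (inv_mem hg) _ h
    simpa [mul_assoc] using this
  obtain ⟨-, z, hzC, hzP, hz⟩ := exists_order_p hcore P inf_le_left hFC hC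
  have hzK : ∀ k ∈ K, k * z = z * k := fun k hk => mem_centralizer_iff.1 (mem_inf.1 hzC).2 k hk
  obtain ⟨hPK, y₀, hy₀K, hy₀P, hy₀⟩ := exists_order_p hcore P
    (Lib.GenFitting.component_le_genFitting hK) hFK (component_ne_bot hK)
  by_contra hxK
  have hxp : x ^ p = 1 := by rw [← hx]; exact pow_orderOf_eq_one x
  have hzp : z ^ p = 1 := by rw [← hz]; exact pow_orderOf_eq_one z
  have hxz : x * z = z * x := (isolated_central hiso P.isPGroup' hxP z hzP).symm
  have hxnz : x ∉ zpowers z := by
    intro h
    apply hxK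
    intro k hk
    obtain ⟨i, rfl⟩ := mem_zpowers_iff.1 h
    exact ((show Commute k z from hzK k hk).zpow_right i).eq.symm
  -- `⟨x, z⟩` has order `p²`
  set E : Subgroup G := closure {x, z} with hE
  have hEe := closure_elemAb (s := ({x, z} : Set G)) (n := p) (by
    rintro a (rfl | rfl) b (rfl | rfl)
    · rfl
    · exact hxz
    · exact hxz.symm
    · rfl) (by
    rintro a (rfl | rfl)
    · exact hxp
    · exact hzp)
  have hEpg : IsPGroup p E := fun a => ⟨1, Subtype.ext (by simpa using hEe.2 a a.2)⟩
  have hEcard : p ^ 2 ≤ Nat.card E := by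
    obtain ⟨n, hn⟩ := IsPGroup.iff_card.1 hEpg
    have h1 : zpowers z < E := by
      refine lt_of_le_of_ne ?_ ?_
      · rw [zpowers_le]; exact subset_closure (by simp)
      · intro h
        apply hxnz
        rw [h]; exact subset_closure (by simp)
    have h2 : Nat.card (zpowers z) < Nat.card E := by
      refine lt_of_le_of_ne (card_le_of_le h1.le) fun h => ?_
      exact h1.ne (eq_of_le_of_card_ge h1.le h.ge)
    rw [Nat.card_zpowers, hz, hn] at h2
    rw [hn]
    refine Nat.pow_le_pow_right hp.pos ?_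
    by_contra h
    have h3 : n ≤ 1 := by omega
    have := Nat.pow_le_pow_right hp.pos h3
    rw [pow_one] at this
    omega
  -- every element of `P ∩ K` of order dividing `p` lies in `E`
  have hin : ∀ y ∈ K, y ∈ (P : Subgroup G) → y ^ p = 1 → y ∈ E := by
    intro y hyK hyP hyp
    have hyz : y * z = z * y := hzK y hyK
    have hyx : y * x = x * y := isolated_central hiso P.isPGroup' hxP y hyP
    have h1 := closure_elemAb (s := ({x, z, y} : Set G)) (n := p) (by
      rintro a (rfl | rfl | rfl) b (rfl | rfl | rfl) <;> first | rfl | assumption | (symm; assumption)) (by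
      rintro a (rfl | rfl | rfl) <;> assumption)
    have h2 : Nat.card (closure ({x, z, y} : Set G)) ≤ p ^ 2 := by
      refine hrank _ ⟨⟨fun a b => Subtype.ext (h1.1 a a.2 b b.2)⟩⟩ h1.2
    have h3 : E ≤ closure ({x, z, y} : Set G) := closure_mono (by
      intro a ha
      rcases ha with rfl | rfl <;> simp)
    have h4 : E = closure ({x, z, y} : Set G) := eq_of_le_of_card_ge h3 (h2.trans hEcard)
    rw [h4]; exact subset_closure (by simp)
  -- hence it is isolated in `K`
  have hzx : zpowers x ≤ normalizer ((zpowers z : Subgroup G) : Set G) := by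
    rw [zpowers_le]
    have : zpowers x ≤ centralizer ((zpowers z : Subgroup G) : Set G) := by
      rw [zpowers_le, mem_centralizer_iff]
      intro a ha
      obtain ⟨i, rfl⟩ := mem_zpowers_iff.1 ha
      exact ((show Commute x z from hxz).zpow_right i).eq.symm
    exact centralizer_le_normalizer _ (this (mem_zpowers x))
  have hisoK : ∀ y ∈ K, y ∈ (P : Subgroup G) → y ^ p = 1 → ∀ g ∈ K, g * y * g⁻¹ ∈ (P : Subgroup G) →
      g * y * g⁻¹ = y := by
    intro y hyK hyP hyp g hg hgy
    have h1 := hin y hyK hyP hyp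
    have h2 : E ≤ zpowers x ⊔ zpowers z := by
      rw [hE, closure_le]
      rintro a (rfl | rfl)
      · exact mem_sup_left (mem_zpowers _)
      · exact mem_sup_right (mem_zpowers _)
    have h3 := h2 h1
    rw [← SetLike.mem_coe, coe_mul_of_left_le_normalizer_right _ _ hzx] at h3
    obtain ⟨a, ha, b, hb, rfl⟩ := Set.mem_mul.1 h3
    obtain ⟨i, rfl⟩ := mem_zpowers_iff.1 ha
    obtain ⟨j, rfl⟩ := mem_zpowers_iff.1 hb
    have h4 : g * z ^ j * g⁻¹ = z ^ j := by
      have := ((show Commute g z from hzK g hg).zpow_right j).eq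
      rw [this]; group
    have h5 : g * (x ^ i * z ^ j) * g⁻¹ = (g * x ^ i * g⁻¹) * z ^ j := by
      calc g * (x ^ i * z ^ j) * g⁻¹ = (g * x ^ i * g⁻¹) * (g * z ^ j * g⁻¹) := by group
        _ = (g * x ^ i * g⁻¹) * z ^ j := by rw [h4]
    have h6 : g * x ^ i * g⁻¹ ∈ (P : Subgroup G) := by
      rw [h5] at hgy
      have := (P : Subgroup G).mul_mem hgy ((P : Subgroup G).inv_mem ((P : Subgroup G).zpow_mem hzP j))
      simpa using this
    rw [h5, isolated_pow_eq hx hiso P.isPGroup' hxP i h6]
  -- contradiction in `K`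
  set R : Sylow p K := (Lib.SylowNormalInf.isPGroup_subgroupOf P K).toSylow hPK with hR
  have hRK : (R : Subgroup K) = (P : Subgroup G).subgroupOf K := rfl
  refine no_complement hK.2 R ?_ (complement_of_isolated hp2 R ?_)
  · intro h
    rw [hRK] at h
    have h1 : (⟨y₀, hy₀K⟩ : K) ∈ (P : Subgroup G).subgroupOf K := hy₀P
    rw [h, mem_bot] at h1
    have h2 : y₀ = 1 := congrArg Subtype.val h1
    rw [h2, orderOf_one] at hy₀
    exact hp.one_lt.ne hy₀
  · intro y hy hyp g hg
    apply Subtype.ext
    exact hisoK y y.2 hy (by simpa using congrArg Subtype.val hyp) g g.2 hg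

/-- **S3049.** -/
theorem main (hp2 : p ≠ 2) (hcore : Cfsg.pPrimeCore p G = ⊥)
    (hrank : Cfsg.PRankLE p 2 G) (x : G) (hx : orderOf x = p) (hiso : Cfsg.IsIsolated x)
    (hnc : x ∉ Subgroup.center G) :
    IsSimpleGroup ↥(Cfsg.generalizedFittingSubgroup G) ∧
      ¬ IsMulCommutative ↥(Cfsg.generalizedFittingSubgroup G) := by
  have hp : p.Prime := hpf.out
  set F := Cfsg.generalizedFittingSubgroup G with hF
  have hxpg : IsPGroup p (zpowers x) := IsPGroup.of_card (n := 1) (by rw [Nat.card_zpowers, hx, pow_one])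
  obtain ⟨P, hxP'⟩ := hxpg.exists_le_sylow
  have hxP : x ∈ (P : Subgroup G) := hxP' (mem_zpowers x)
  have hxO : x ∉ Cfsg.pCore p G := by
    intro h
    apply hnc
    rw [mem_center_iff]
    intro g
    have h1 : g * x * g⁻¹ ∈ (P : Subgroup G) :=
      Lib.Cores.pCore_le_sylow P ((Lib.Cores.pCore_normal (G := G) p).conj_mem x h g)
    have := isolated_eq hiso P.isPGroup' hxP h1
    rwa [mul_inv_eq_iff_eq_mul] at this
  -- `x` centralises `F(G) = O_p(G)`
  have hFit : ∀ y ∈ Cfsg.fittingSubgroup G, x * y = y * x := by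
    have h1 : Cfsg.fittingSubgroup G ≤ Cfsg.pCore p G := by
      rw [Lib.Cores.fittingSubgroup_eq_iSup_pCore]
      refine iSup_le ?_
      rintro ⟨q, hq⟩
      haveI : Fact q.Prime := ⟨hq⟩
      by_cases hqp : q = p
      · subst hqp; exact le_rfl
      · have h2 : Cfsg.pCore q G ≤ Cfsg.pPrimeCore p G := by
          refine Lib.Cores.le_pPrimeCore (Lib.Cores.pCore_normal q) ?_
          obtain ⟨n, hn⟩ := IsPGroup.iff_card.1 (Lib.Cores.pCore_isPGroup (G := G) q)
          rw [hn]
          exact Nat.Coprime.pow_left n ((Nat.coprime_primes hq hp).2 hqp)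
        rw [hcore, le_bot_iff] at h2
        show Cfsg.pCore q G ≤ _
        rw [h2]; exact bot_le
    intro y hy
    exact (isolated_central hiso P.isPGroup' hxP y (Lib.Cores.pCore_le_sylow P (h1 hy))).symm
  -- some component has trivial centralizer in `F*(G)`
  obtain ⟨K, hK, hKC⟩ : ∃ K : Subgroup G, Cfsg.IsComponent K ∧ F ⊓ centralizer (K : Set G) = ⊥ := by
    by_contra hcon
    push Not at hcon
    apply hxO
    have h1 : F ≤ centralizer ({x} : Set G) := by
      rw [hF, Lib.GenFitting.genFitting_def]
      refine sup_le ?_ ?_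
      · rw [layer_le_iff]
        intro K hK k hk
        exact mem_centralizer_singleton_iff.2 (key hp2 hcore hrank hx hiso hK (hcon K hK) k hk).symm
      · intro y hy
        exact mem_centralizer_singleton_iff.2 (hFit y hy).symm
    have h2 : x ∈ centralizer (F : Set G) :=
      mem_centralizer_iff.2 fun y hy => mem_centralizer_singleton_iff.1 (h1 hy)
    have h3 : x ∈ F := Lib.GenFitting.centralizer_genFitting_le h2
    haveI hFn : F.Normal := Lib.GenFitting.genFitting_normal
    have hN : (F ⊓ centralizer (F : Set G)).Normal := inferInstance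
    have hcomm : ∀ a ∈ F ⊓ centralizer (F : Set G), ∀ b ∈ F ⊓ centralizer (F : Set G), a * b = b * a := by
      intro a ha b hb
      exact ((mem_centralizer_iff.1 (mem_inf.1 hb).2) a (mem_inf.1 ha).1)
    have hnil : Group.IsNilpotent ↥(F ⊓ centralizer (F : Set G)) := by
      letI : CommGroup ↥(F ⊓ centralizer (F : Set G)) :=
        { (inferInstance : Group ↥(F ⊓ centralizer (F : Set G))) with
          mul_comm := fun a b => Subtype.ext (hcomm a a.2 b b.2) }
      exact CommGroup.isNilpotent
    refine Lib.GenFitting.mem_pCore_of_mem_nilpotent_normal (p := p) hN hnil (z := x) (mem_inf.2 ⟨h3, h2⟩) (k := 1) ?_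
    rw [pow_one, ← hx]; exact pow_orderOf_eq_one x
  -- so `F*(G) = K`
  have hKF : K ≤ F := Lib.GenFitting.component_le_genFitting hK
  have hFK : F = K := by
    refine le_antisymm ?_ hKF
    rw [hF, Lib.GenFitting.genFitting_def]
    refine sup_le ?_ ?_
    · rw [layer_le_iff]
      intro L hL
      by_contra h
      have hne : L ≠ K := fun h' => h h'.le
      have h1 : L ≤ F ⊓ centralizer (K : Set G) :=
        le_inf (Lib.GenFitting.component_le_genFitting hL) (component_le_centralizer_of_ne hL hK hne)
      rw [hKC, le_bot_iff] at h1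
      exact component_ne_bot hL h1
    · have h1 : K ≤ centralizer (Cfsg.fittingSubgroup G : Set G) :=
        (component_le_layer hK).trans layer_le_centralizer_fitting
      have h2 : Cfsg.fittingSubgroup G ≤ centralizer (K : Set G) := by
        rwa [le_centralizer_iff]
      have h3 : Cfsg.fittingSubgroup G ≤ F ⊓ centralizer (K : Set G) :=
        le_inf Lib.GenFitting.fitting_le_genFitting h2
      rw [hKC] at h3
      exact h3.trans bot_le
  have hq := hK.2
  rw [hFK]
  have hZ : center K = ⊥ := by
    rw [eq_bot_iff]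
    intro k hk
    have h1 : (k : G) ∈ F ⊓ centralizer (K : Set G) := by
      refine mem_inf.2 ⟨hKF k.2, mem_centralizer_iff.2 fun y hy => ?_⟩
      exact congrArg Subtype.val (mem_center_iff.1 hk ⟨y, hy⟩)
    rw [hKC, mem_bot] at h1
    rw [mem_bot]; exact Subtype.ext h1
  refine ⟨?_, quasisimple_not_isMulCommutative hq⟩
  have e : K ⧸ center K ≃* K := (QuotientGroup.quotientMulEquivOfEq hZ).trans QuotientGroup.quotientBot
  haveI := hq.2
  haveI : Nontrivial K := quasisimple_nontrivial hq
  exact IsSimpleGroup.isSimpleGroup_of_surjective e.toMonoidHom e.surjective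

end Cfsg.Agent.H273.IsoRank
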